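import Mathlib
import Cfsg.Agent.Lib.Helper32.OPG.Defs
import Cfsg.Agent.Lib.Helper13.OElm.EmbM

/-!
# Project OMG (S2415): `PΩ⁻_{2m}(q)`, `m ≥ 4`, is generated by two elements — interface

The minus twin of helper32's project OPG (S2414).  `k = m - 1 ≥ 3`, the space is
`MI k → F` (`MI k = (Fin k ⊕ Fin k) ⊕ Fin 2`), `Q = Cfsg.quadFormMinus k F a b`
(hyperbolic part `Σ xᵢ yᵢ` on the `inl` coordinates, anisotropic plane on the `inr` ones).
`Em` embeds the isometry group of the hyperbolic part (project Siegel / OPG notation), `Lm` is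
the Levi embedding of `SL_k`.  Root elements are given by their action on vectors:
`IsEich u w σ` (Eichler transformation `x ↦ x + B(u,x) w - (B(w,x) + Q(w) B(u,x)) u`) and
`IsSieg u v c σ` (Siegel transformation `x ↦ x + c B(u,x) v - c B(v,x) u`).
One closed `Prop` per package; paper proofs in the plan note (topic S2415).
-/

set_option autoImplicit false
open scoped Matrix MatrixGroups

namespace Cfsg.Agent.Lib.Helper94.OMG

open Cfsg.Agent.Lib.Helper31.Siegel Cfsg.Agent.Lib.Helper32.OPG Cfsg.Agent.Lib.Helper64.OParM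
open Cfsg.Agent.Lib.Helper23.OHyp

universe u

/-- The minus form. -/
abbrev QM (k : ℕ) {F : Type u} [Field F] (a b : F) : (MI k → F) → F :=
  Cfsg.quadFormMinus k F a b

/-- Its polar form. -/
abbrev BM (k : ℕ) {F : Type u} [Field F] (a b : F) (x y : MI k → F) : F :=
  QuadraticMap.polar (Cfsg.quadFormMinus k F a b) x y

/-- The isometry group of the minus form. -/
abbrev GM (k : ℕ) (F : Type u) [Field F] (a b : F) : Subgroup (GL (MI k) F) :=
  Cfsg.isometryGroup F (Cfsg.quadFormMinus k F a b)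

/-- The matrix of an isometry. -/
abbrev matM {k : ℕ} {F : Type u} [Field F] {a b : F} (σ : ↥(GM k F a b)) :
    Matrix (MI k) (MI k) F :=
  ((σ : GL (MI k) F) : Matrix (MI k) (MI k) F)

/-- The standard basis vector `e_i` of the hyperbolic part. -/
abbrev eM {k : ℕ} {F : Type u} [Field F] (i : Fin k) : MI k → F :=
  Pi.single (Sum.inl (Sum.inl i)) 1

/-- The standard basis vector `f_i` of the hyperbolic part. -/
abbrev fM {k : ℕ} {F : Type u} [Field F] (i : Fin k) : MI k → F :=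
  Pi.single (Sum.inl (Sum.inr i)) 1

/-- Extension by zero of a vector of the hyperbolic part. -/
def emb {k : ℕ} {F : Type u} [Field F] (p : Vec k F) : MI k → F := Sum.elim p 0

/-- `w` lies in the anisotropic plane. -/
def IsZ {k : ℕ} {F : Type u} [Field F] (w : MI k → F) : Prop :=
  ∀ j : Fin k ⊕ Fin k, w (Sum.inl j) = 0

/-- `w` lies in `⟨e_l, f_l⟩ ⊕ (anisotropic plane)`, `l` the last index. -/
def IsW {k : ℕ} {F : Type u} [Field F] (w : MI k → F) : Prop :=
  ∀ i : Fin k, i.val + 1 < k → w (Sum.inl (Sum.inl i)) = 0 ∧ w (Sum.inl (Sum.inr i)) = 0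

/-- `σ` is the Eichler transformation `x ↦ x + B(u,x) w - (B(w,x) + Q(w) B(u,x)) u`. -/
def IsEich {k : ℕ} {F : Type u} [Field F] (a b : F) (u w : MI k → F) (σ : ↥(GM k F a b)) :
    Prop :=
  ∀ x : MI k → F, matM σ *ᵥ x =
    x + BM k a b u x • w - (BM k a b w x + QM k a b w * BM k a b u x) • u

/-- `σ` is the Siegel transformation `x ↦ x + c B(u,x) v - c B(v,x) u`. -/
def IsSieg {k : ℕ} {F : Type u} [Field F] (a b : F) (u v : MI k → F) (c : F)
    (σ : ↥(GM k F a b)) : Prop :=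
  ∀ x : MI k → F, matM σ *ᵥ x = x + (c * BM k a b u x) • v - (c * BM k a b v x) • u

/-- The embedding of the isometry group of the hyperbolic part, `g ↦ fromBlocks g 0 0 1`. -/
noncomputable def Em (k : ℕ) (F : Type u) [Field F] (a b : F) : ↥(Iso k F) →* ↥(GM k F a b) :=
  MonoidHom.codRestrict
    ((Cfsg.Agent.Lib.Helper13.OElm.embHom F k).comp (Iso k F).subtype) (GM k F a b)
    (fun σ => by
      intro x _
      show Cfsg.quadFormMinus k F a b
          (((Cfsg.Agent.Lib.Helper13.OElm.embHom F k (σ : GL (Fin k ⊕ Fin k) F) : GL (MI k) F) :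
            Matrix (MI k) (MI k) F) *ᵥ x) = Cfsg.quadFormMinus k F a b x
      have hx : x = Sum.elim (x ∘ Sum.inl) (x ∘ Sum.inr) := by
        ext (i | i) <;> rfl
      rw [Cfsg.Agent.Lib.Helper13.OElm.embHom_mulVec,
        Cfsg.Agent.Lib.Helper13.OElm.quadFormMinus_elim]
      conv_rhs => rw [hx, Cfsg.Agent.Lib.Helper13.OElm.quadFormMinus_elim]
      have h1 : Cfsg.quadFormPlus k F
          (((σ : GL (Fin k ⊕ Fin k) F) : Matrix (Fin k ⊕ Fin k) (Fin k ⊕ Fin k) F) *ᵥ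
            (x ∘ Sum.inl)) = Cfsg.quadFormPlus k F (x ∘ Sum.inl) := σ.2 (x ∘ Sum.inl) (x ∘ Sum.inl)
      rw [h1])

/-- The Levi embedding `SL_k → O⁻_{2k+2}`, `g ↦ diag(g, g⁻ᵀ, 1)`. -/
noncomputable def Lm (k : ℕ) (F : Type u) [Field F] (a b : F) :
    Matrix.SpecialLinearGroup (Fin k) F →* ↥(GM k F a b) :=
  (Em k F a b).comp (L k F)

/-! ## Basic lemmas -/

section Basic

variable {k : ℕ} {F : Type u} [Field F] {a b : F}

theorem matM_Em (σ : ↥(Iso k F)) (x : MI k → F) :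
    matM (Em k F a b σ) *ᵥ x = Sum.elim (mat σ *ᵥ (x ∘ Sum.inl)) (x ∘ Sum.inr) :=
  Cfsg.Agent.Lib.Helper13.OElm.embHom_mulVec _ x

theorem Lm_apply (g : Matrix.SpecialLinearGroup (Fin k) F) :
    Lm k F a b g = Em k F a b (L k F g) := rfl

theorem emb_E (i : Fin k) : emb (E i : Vec k F) = eM i := by
  ext (j | j)
  · simp [emb, Pi.single_apply]
  · simp [emb]

theorem emb_Fv (i : Fin k) : emb (Fv i : Vec k F) = fM i := by
  ext (j | j)
  · simp [emb, Pi.single_apply]
  · simp [emb]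

theorem QM_act (σ : ↥(GM k F a b)) (x : MI k → F) : QM k a b (matM σ *ᵥ x) = QM k a b x :=
  σ.2 x x

theorem BM_act (σ : ↥(GM k F a b)) (x y : MI k → F) :
    BM k a b (matM σ *ᵥ x) (matM σ *ᵥ y) = BM k a b x y := by
  unfold BM QuadraticMap.polar
  rw [← Matrix.mulVec_add]
  have h1 := QM_act σ (x + y)
  have h2 := QM_act σ x
  have h3 := QM_act σ y
  unfold QM at h1 h2 h3
  rw [h1, h2, h3]

theorem mulM_act (σ τ : ↥(GM k F a b)) (x : MI k → F) :
    matM (σ * τ) *ᵥ x = matM σ *ᵥ (matM τ *ᵥ x) := by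
  rw [Matrix.mulVec_mulVec]; rfl

theorem oneM_act (x : MI k → F) : matM (1 : ↥(GM k F a b)) *ᵥ x = x := by
  simp [matM]

theorem invM_act (σ : ↥(GM k F a b)) (x : MI k → F) : matM σ⁻¹ *ᵥ (matM σ *ᵥ x) = x := by
  rw [← mulM_act, inv_mul_cancel, oneM_act]

theorem actM_inv (σ : ↥(GM k F a b)) (x : MI k → F) : matM σ *ᵥ (matM σ⁻¹ *ᵥ x) = x := by
  rw [← mulM_act, mul_inv_cancel, oneM_act]

/-- An isometry is determined by its action on vectors. -/
theorem extM_act {σ τ : ↥(GM k F a b)} (h : ∀ x : MI k → F, matM σ *ᵥ x = matM τ *ᵥ x) :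
    σ = τ := by
  apply Subtype.ext
  apply Units.ext
  exact Matrix.ext_of_mulVec_single fun i => h (Pi.single i 1)

end Basic

/-! ## Packages -/

/-- [GENSM] (pure `SL`) two generators of `SL_{N+1}(F)`, `N ≥ 2`; the first is supported on the
top left `2 × 2` block and has order dividing `A ∣ q (q - 1)`. -/
def PkgGensM : Prop :=
  ∀ (F : Type u) [Field F] [Fintype F] (N : ℕ), 2 ≤ N →
    ∃ (g₁ g₂ : Matrix.SpecialLinearGroup (Fin (N + 1)) F) (A : ℕ),
      A ∣ Fintype.card F * (Fintype.card F - 1) ∧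
      Subgroup.closure ({g₁, g₂} : Set (Matrix.SpecialLinearGroup (Fin (N + 1)) F)) = ⊤ ∧
      g₁ ^ A = 1 ∧
      ∀ i : Fin (N + 1), 2 ≤ i.val →
        (∀ j, (g₁ : Matrix (Fin (N + 1)) (Fin (N + 1)) F) i j =
          (1 : Matrix (Fin (N + 1)) (Fin (N + 1)) F) i j) ∧
        (∀ j, (g₁ : Matrix (Fin (N + 1)) (Fin (N + 1)) F) j i =
          (1 : Matrix (Fin (N + 1)) (Fin (N + 1)) F) j i)

/-- [MIXM] the mixing element: an isometry `u` of odd prime order `r ∣ q² + 1` fixing `e_i, f_i`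
for all `i` but the last index `l`, and such that the `⟨u⟩`-orbits of `e_l` and of `f_l` span
`⟨e_l, f_l⟩ ⊕ (anisotropic plane)`. -/
def PkgMixM : Prop :=
  ∀ (F : Type u) [Field F] [Fintype F] (k : ℕ) (a b : F), Aniso a b → 3 ≤ k →
    ∃ (r : ℕ) (u : ↥(GM k F a b)), r.Prime ∧ r ≠ 2 ∧ r ∣ Fintype.card F ^ 2 + 1 ∧ u ^ r = 1 ∧
      (∀ i : Fin k, i.val + 1 < k →
        matM u *ᵥ (eM i : MI k → F) = eM i ∧ matM u *ᵥ (fM i : MI k → F) = fM i) ∧
      ∀ l : Fin k, l.val + 1 = k → ∀ w : MI k → F, IsW w →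
        w ∈ Submodule.span F (Set.range fun j : ℕ => matM (u ^ j) *ᵥ (eM l : MI k → F)) ∧
        w ∈ Submodule.span F (Set.range fun j : ℕ => matM (u ^ j) *ᵥ (fM l : MI k → F))

/-- [MIXA] (sub-package of [MIXM]) an isometry `x` of odd prime order `r ∣ q² + 1` whose fixed
space is nondegenerate of plus type and of dimension `2 k - 2`, and whose moved space is
irreducible (every orbit of a non-zero vector spans it). -/
def PkgMixA : Prop :=
  ∀ (F : Type u) [Field F] [Fintype F] (k : ℕ) (a b : F), Aniso a b → 3 ≤ k →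
    ∃ (r : ℕ) (x : ↥(GM k F a b)), r.Prime ∧ r ≠ 2 ∧ r ∣ Fintype.card F ^ 2 + 1 ∧ x ^ r = 1 ∧
      Module.finrank F (fixSp (matM x)) = 2 * k - 2 ∧
      Nd (QM k a b) (fixSp (matM x)) ∧ Plus (QM k a b) (fixSp (matM x)) ∧
      Perp (QM k a b) (fixSp (matM x)) (movSp (matM x)) ∧
      IsCompl (fixSp (matM x)) (movSp (matM x)) ∧
      ∀ v : MI k → F, v ∈ movSp (matM x) → v ≠ 0 → ∀ w : MI k → F, w ∈ movSp (matM x) →
        w ∈ Submodule.span F (Set.range fun j : ℕ => matM (x ^ j) *ᵥ v)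

/-- [MIXW] (sub-package of [MIXM], Witt) a nondegenerate plus-type subspace of dimension
`2 k - 2` contains the image under an isometry of the standard vectors `e_i, f_i`, `i + 1 < k`. -/
def PkgMixW : Prop :=
  ∀ (F : Type u) [Field F] [Fintype F] (k : ℕ) (a b : F), Aniso a b → 3 ≤ k →
    ∀ C : Submodule F (MI k → F), Nd (QM k a b) C → Plus (QM k a b) C →
      Module.finrank F C = 2 * k - 2 →
      ∃ h : ↥(GM k F a b), ∀ i : Fin k, i.val + 1 < k →
        matM h *ᵥ (eM i : MI k → F) ∈ C ∧ matM h *ᵥ (fM i : MI k → F) ∈ C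

/-- [COMMM] an isometry fixing `e_i, f_i` for all `i` but the last index commutes with the Levi
image of a matrix whose last row and column are standard. -/
def PkgCommM : Prop :=
  ∀ (F : Type u) [Field F] (k : ℕ) (a b : F) (σ : ↥(GM k F a b))
    (g : Matrix.SpecialLinearGroup (Fin k) F),
    (∀ i : Fin k, i.val + 1 < k →
      matM σ *ᵥ (eM i : MI k → F) = eM i ∧ matM σ *ᵥ (fM i : MI k → F) = fM i) →
    (∀ l : Fin k, l.val + 1 = k →
      (∀ j, (g : Matrix (Fin k) (Fin k) F) l j = (1 : Matrix (Fin k) (Fin k) F) l j) ∧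
      (∀ j, (g : Matrix (Fin k) (Fin k) F) j l = (1 : Matrix (Fin k) (Fin k) F) j l)) →
    Lm k F a b g * σ = σ * Lm k F a b g

/-- [ROOTS] with the Levi `SL_k` and the mixing element `u`, the subgroup `K` contains the
Eichler elements `E(e_i, w)` (`w` in the span of the `u`-orbit of `f_l`) and `E(f_i, w)` (`w` in
the span of the `u`-orbit of `e_l`), `i ≠ l`. -/
def PkgRoots : Prop :=
  ∀ (F : Type u) [Field F] [Fintype F] (k : ℕ) (a b : F), Aniso a b →
    ∀ K : Subgroup ↥(GM k F a b),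
    (∀ g : Matrix.SpecialLinearGroup (Fin k) F, Lm k F a b g ∈ K) →
    ∀ u : ↥(GM k F a b), u ∈ K →
    (∀ i : Fin k, i.val + 1 < k →
      matM u *ᵥ (eM i : MI k → F) = eM i ∧ matM u *ᵥ (fM i : MI k → F) = fM i) →
    ∀ l i : Fin k, l.val + 1 = k → i ≠ l → ∀ w : MI k → F,
      (w ∈ Submodule.span F (Set.range fun j : ℕ => matM (u ^ j) *ᵥ (fM l : MI k → F)) →
        ∀ σ : ↥(GM k F a b), IsEich a b (eM i) w σ → σ ∈ K) ∧
      (w ∈ Submodule.span F (Set.range fun j : ℕ => matM (u ^ j) *ᵥ (eM l : MI k → F)) →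
        ∀ σ : ↥(GM k F a b), IsEich a b (fM i) w σ → σ ∈ K)

/-- [EMSIEG] the embedding of a Siegel element of the hyperbolic part is an Eichler element. -/
def PkgEmSieg : Prop :=
  ∀ (F : Type u) [Field F] (k : ℕ) (a b : F) (p r : Vec k F) (c : F) (σ : ↥(Iso k F)),
    QF k F p = 0 → IsSiegel p r c σ → IsEich a b (emb r) (c • emb p) (Em k F a b σ)

/-- [SHORT] the short root elements `E(e_i, w)`, `E(f_i, w)` (`w` in the anisotropic plane) for
all `i ≠ l` give those for `i = l` (conjugation by the Levi `SL_k`). -/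
def PkgShort : Prop :=
  ∀ (F : Type u) [Field F] [Fintype F] (k : ℕ) (a b : F), Aniso a b → 2 ≤ k →
    ∀ K : Subgroup ↥(GM k F a b),
    (∀ g : Matrix.SpecialLinearGroup (Fin k) F, Lm k F a b g ∈ K) →
    ∀ l : Fin k,
    (∀ i : Fin k, i ≠ l → ∀ w : MI k → F, IsZ w → ∀ σ : ↥(GM k F a b),
      (IsEich a b (eM i) w σ ∨ IsEich a b (fM i) w σ) → σ ∈ K) →
    ∀ i : Fin k, ∀ w : MI k → F, IsZ w → ∀ σ : ↥(GM k F a b),
      (IsEich a b (eM i) w σ ∨ IsEich a b (fM i) w σ) → σ ∈ K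

/-- [KILLZ] (sub-package of [LINEM]) with the short root elements of the indices in `S`, a vector
whose hyperbolic part has a non-zero coordinate at an index of `S` is moved by `K` to a vector
with zero anisotropic part; the hyperbolic coordinates outside `S` do not change. -/
def PkgKillZ : Prop :=
  ∀ (F : Type u) [Field F] [Fintype F] (k : ℕ) (a b : F), Aniso a b →
    ∀ (S : Set (Fin k)) (K : Subgroup ↥(GM k F a b)),
    (∀ i : Fin k, i ∈ S → ∀ w : MI k → F, IsZ w → ∀ σ : ↥(GM k F a b),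
      (IsEich a b (eM i) w σ ∨ IsEich a b (fM i) w σ) → σ ∈ K) →
    ∀ v : MI k → F, (∃ i ∈ S, v (Sum.inl (Sum.inl i)) ≠ 0 ∨ v (Sum.inl (Sum.inr i)) ≠ 0) →
    ∃ g ∈ K, (∀ t : Fin 2, (matM g *ᵥ v) (Sum.inr t) = 0) ∧
      ∀ i : Fin k, i ∉ S → (matM g *ᵥ v) (Sum.inl (Sum.inl i)) = v (Sum.inl (Sum.inl i)) ∧
        (matM g *ᵥ v) (Sum.inl (Sum.inr i)) = v (Sum.inl (Sum.inr i))

/-- [LINEM] a subgroup containing the long root groups `X, Y, Z` of the hyperbolic part and all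
short root elements contains every Siegel transformation of the minus space. -/
def PkgLineM : Prop :=
  ∀ (F : Type u) [Field F] [Fintype F] (k : ℕ) (a b : F), Aniso a b → 3 ≤ k →
    ∀ K : Subgroup ↥(GM k F a b),
    HasX Set.univ (K.comap (Em k F a b)) → HasY Set.univ (K.comap (Em k F a b)) →
    HasZ Set.univ (K.comap (Em k F a b)) →
    (∀ i : Fin k, ∀ w : MI k → F, IsZ w → ∀ σ : ↥(GM k F a b),
      (IsEich a b (eM i) w σ ∨ IsEich a b (fM i) w σ) → σ ∈ K) →
    ∀ (u v : MI k → F) (c : F), QM k a b u = 0 → QM k a b v = 0 → BM k a b u v = 0 →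
    ∀ σ : ↥(GM k F a b), IsSieg a b u v c σ → σ ∈ K

/-- [LOM] the Levi `SL_k` lies in `Ω`. -/
def PkgLOm : Prop :=
  ∀ (F : Type u) [Field F] [Fintype F] (k : ℕ) (a b : F), 3 ≤ k →
    ∀ g : Matrix.SpecialLinearGroup (Fin k) F,
      Lm k F a b g ∈ Cfsg.Omega F (Cfsg.quadFormMinus k F a b)

/-- [UOMM] an isometry of odd order lies in `Ω`. -/
def PkgUOmM : Prop :=
  ∀ (F : Type u) [Field F] [Fintype F] (k : ℕ) (a b : F), Aniso a b → 3 ≤ k →
    ∀ (u : ↥(GM k F a b)) (r : ℕ), Odd r → u ^ r = 1 →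
      u ∈ Cfsg.Omega F (Cfsg.quadFormMinus k F a b)

end Cfsg.Agent.Lib.Helper94.OMG
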