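import Mathlib
import Cfsg.Agent.Lib.Helper94.OMG.Defs
import Cfsg.Agent.Lib.Helper32.OPG.Main
import Cfsg.Agent.Lib.Helper46.OPG.Bridge
import Cfsg.Agent.Lib.Helper44.Char2Forms
import Cfsg.Agent.Lib.Helper14.Forms

/-!
# Project OMG (S2415): assembly

`main_of`: `PΩ⁻_{2m}(q)`, `m ≥ 4`, is generated by two elements, from the packages of
`Cfsg.Agent.Lib.Helper94.OMG.Defs` and the landed OPG packages [XL], [SPREAD].
-/

set_option autoImplicit false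
open scoped Matrix MatrixGroups

namespace Cfsg.Agent.Lib.Helper94.OMG

open Cfsg.Agent.Lib.Helper31.Siegel Cfsg.Agent.Lib.Helper32.OPG Cfsg.Agent.Lib.Helper64.OParM
open Cfsg.Agent.Lib.Helper23.OHyp

universe u

/-- an odd prime dividing `q² + 1` is prime to every divisor of `q (q - 1)`. -/
theorem coprime_of_dvd_sq_add_one {q r A : ℕ} (hq : 2 ≤ q) (hr : r.Prime) (hr2 : r ≠ 2)
    (hrq : r ∣ q ^ 2 + 1) (hA : A ∣ q * (q - 1)) : Nat.Coprime A r := by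
  apply Nat.Coprime.symm
  rw [Nat.Prime.coprime_iff_not_dvd hr]
  intro hrA
  have h1 : r ∣ q * (q - 1) := dvd_trans hrA hA
  obtain ⟨t, rfl⟩ : ∃ t, q = t + 1 := ⟨q - 1, by omega⟩
  have ht : t + 1 - 1 = t := by omega
  rw [ht] at h1
  rcases (Nat.Prime.dvd_mul hr).mp h1 with h | h
  · have h2 : r ∣ (t + 1) ^ 2 := dvd_pow h (by norm_num)
    have h3 : r ∣ 1 := (Nat.dvd_add_right h2).mp hrq
    exact hr.one_lt.ne' (Nat.dvd_one.mp h3)
  · have h2 : r ∣ t * (t + 2) := Dvd.dvd.mul_right h _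
    have e : (t + 1) ^ 2 + 1 = t * (t + 2) + 2 := by ring
    rw [e] at hrq
    have h3 : r ∣ 2 := (Nat.dvd_add_right h2).mp hrq
    exact hr2 ((Nat.prime_dvd_prime_iff_eq hr Nat.prime_two).mp h3)

theorem isW_smul_eM {k : ℕ} {F : Type u} [Field F] (l : Fin k) (hl : l.val + 1 = k) (c : F) :
    IsW (c • (eM l : MI k → F)) := by
  intro i hi
  have hne : i ≠ l := by
    intro h; rw [h] at hi; omega
  constructor
  · simp [hne]
  · simp

theorem isW_smul_fM {k : ℕ} {F : Type u} [Field F] (l : Fin k) (hl : l.val + 1 = k) (c : F) :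
    IsW (c • (fM l : MI k → F)) := by
  intro i hi
  have hne : i ≠ l := by
    intro h; rw [h] at hi; omega
  constructor
  · simp
  · simp [hne]

theorem isW_of_isZ {k : ℕ} {F : Type u} [Field F] {w : MI k → F} (hw : IsZ w) : IsW w :=
  fun i _ => ⟨hw (Sum.inl i), hw (Sum.inr i)⟩

/-- **OMG main theorem**, in terms of `k = m - 1 ≥ 3`. -/
theorem main_k (hGens : PkgGensM.{u}) (hMix : PkgMixM.{u}) (hComm : PkgCommM.{u})
    (hRoots : PkgRoots.{u}) (hEmS : PkgEmSieg.{u}) (hShort : PkgShort.{u})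
    (hLine : PkgLineM.{u}) (hLOm : PkgLOm.{u}) (hUOm : PkgUOmM.{u})
    (hXL : Cfsg.Agent.Lib.Helper32.OPG.PkgXL.{u})
    (hSpread : Cfsg.Agent.Lib.Helper32.OPG.PkgSpread.{u})
    (F : Type u) [Field F] [Fintype F] (k : ℕ) (hk : 3 ≤ k) (a b : F) (hab : Aniso a b) :
    ∃ g h : Cfsg.POmega F (Cfsg.quadFormMinus k F a b),
      Subgroup.closure ({g, h} : Set (Cfsg.POmega F (Cfsg.quadFormMinus k F a b))) = ⊤ := by
  obtain ⟨N, rfl⟩ : ∃ N, k = N + 1 := ⟨k - 1, by omega⟩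
  have hN : 2 ≤ N := by omega
  obtain ⟨g₁, g₂, A, hAdvd, hgen, hg₁A, hg₁⟩ := hGens F N hN
  obtain ⟨r, u, hr, hr2, hrdvd, hur, hufix, huspan⟩ := hMix F (N + 1) a b hab hk
  obtain ⟨l, hl⟩ : ∃ l : Fin (N + 1), l.val + 1 = N + 1 := ⟨⟨N, by omega⟩, rfl⟩
  obtain ⟨i0, hi0⟩ : ∃ i0 : Fin (N + 1), i0.val = 0 := ⟨⟨0, by omega⟩, rfl⟩
  have h0l : i0 ≠ l := by
    intro h; rw [h] at hi0; omega
  obtain ⟨x, hx⟩ : ∃ x : ↥(GM (N + 1) F a b), x = Lm (N + 1) F a b g₁ := ⟨_, rfl⟩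
  have hcomm : x * u = u * x := by
    rw [hx]
    exact hComm F (N + 1) a b u g₁ hufix (fun l' hl' => hg₁ l' (by omega))
  have hq : 2 ≤ Fintype.card F := Fintype.one_lt_card
  have hcop : Nat.Coprime A r := coprime_of_dvd_sq_add_one hq hr hr2 hrdvd hAdvd
  have hxA : x ^ A = 1 := by rw [hx, ← map_pow, hg₁A, map_one]
  obtain ⟨K, hK⟩ : ∃ K : Subgroup ↥(GM (N + 1) F a b),
      K = Subgroup.closure {x * u, Lm (N + 1) F a b g₂} := ⟨_, rfl⟩
  have haK : x * u ∈ K := by rw [hK]; exact Subgroup.subset_closure (by simp)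
  have hbK : Lm (N + 1) F a b g₂ ∈ K := by rw [hK]; exact Subgroup.subset_closure (by simp)
  obtain ⟨hxK, huK⟩ := mem_of_coprime_orders K x u A r hcop hcomm hxA hur haK
  have hLK : ∀ g, Lm (N + 1) F a b g ∈ K := by
    have h1 : Subgroup.closure ({g₁, g₂} : Set (Matrix.SpecialLinearGroup (Fin (N + 1)) F)) ≤
        K.comap (Lm (N + 1) F a b) := by
      rw [Subgroup.closure_le]
      rintro y (rfl | rfl)
      · show Lm (N + 1) F a b y ∈ K
        rw [← hx]; exact hxK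
      · exact hbK
    intro g
    have h2 : g ∈ K.comap (Lm (N + 1) F a b) := h1 (by rw [hgen]; exact Subgroup.mem_top g)
    exact h2
  have hX : HasX Set.univ (K.comap (Em (N + 1) F a b)) := by
    intro i j _ _ hij c σ hσ
    rw [isSiegel_ext hσ (hXL (N + 1) F i j hij c)]
    exact hLK _
  have hR := hRoots F (N + 1) a b hab K hLK u huK hufix l
  have hE : ∀ i : Fin (N + 1), i ≠ l → ∀ w : MI (N + 1) → F, IsW w →
      ∀ σ : ↥(GM (N + 1) F a b), IsEich a b (eM i) w σ → σ ∈ K :=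
    fun i hi w hw σ hσ => (hR i hl hi w).1 (huspan l hl w hw).2 σ hσ
  have hFr : ∀ i : Fin (N + 1), i ≠ l → ∀ w : MI (N + 1) → F, IsW w →
      ∀ σ : ↥(GM (N + 1) F a b), IsEich a b (fM i) w σ → σ ∈ K :=
    fun i hi w hw σ hσ => (hR i hl hi w).2 (huspan l hl w hw).1 σ hσ
  have hY1 : ∀ (c : F) (σ : ↥(Iso (N + 1) F)), IsSiegel (E l) (E i0) c σ →
      σ ∈ K.comap (Em (N + 1) F a b) := by
    intro c σ hσ
    have h1 := hEmS F (N + 1) a b (E l) (E i0) c σ (Q_E l) hσ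
    rw [emb_E, emb_E] at h1
    exact hE i0 h0l _ (isW_smul_eM l hl c) _ h1
  have hZ1 : ∀ (c : F) (σ : ↥(Iso (N + 1) F)), IsSiegel (Fv l) (Fv i0) c σ →
      σ ∈ K.comap (Em (N + 1) F a b) := by
    intro c σ hσ
    have h1 := hEmS F (N + 1) a b (Fv l) (Fv i0) c σ (Q_Fv l) hσ
    rw [emb_Fv, emb_Fv] at h1
    exact hFr i0 h0l _ (isW_smul_fM l hl c) _ h1
  have hY : HasY Set.univ (K.comap (Em (N + 1) F a b)) :=
    (hSpread (N + 1) F _ hX l i0 (Ne.symm h0l)).1 hY1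
  have hZ : HasZ Set.univ (K.comap (Em (N + 1) F a b)) :=
    (hSpread (N + 1) F _ hX l i0 (Ne.symm h0l)).2 hZ1
  have hSh := hShort F (N + 1) a b hab (by omega) K hLK l
    (fun i hi w hw σ hσ => hσ.elim (hE i hi w (isW_of_isZ hw) σ) (hFr i hi w (isW_of_isZ hw) σ))
  have hSieg := hLine F (N + 1) a b hab hk K hX hY hZ hSh
  have hΩ : Cfsg.Omega F (Cfsg.quadFormMinus (N + 1) F a b) ≤ K := by
    refine Cfsg.Agent.Lib.Helper46.OPG.omega_le_of_siegel_act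
      (Cfsg.Agent.Lib.Helper14.minusQF (N + 1) F a b)
      (Cfsg.Agent.Lib.Helper44.minusQF_nondegenerate_all (N + 1) F a b hab) ?_
      (Cfsg.quadFormMinus (N + 1) F a b) (Cfsg.Agent.Lib.Helper14.minusQF_coe (N + 1) F a b) K ?_
    · simp only [Fintype.card_sum, Fintype.card_fin]
      omega
    · intro σ u' v' c hu' hv' huv' hσ
      exact hSieg u' v' c hu' hv' huv' σ hσ
  have huΩ : u ∈ Cfsg.Omega F (Cfsg.quadFormMinus (N + 1) F a b) :=
    hUOm F (N + 1) a b hab hk u r (hr.odd_of_ne_two hr2) hur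
  have hLΩ : ∀ g, Lm (N + 1) F a b g ∈ Cfsg.Omega F (Cfsg.quadFormMinus (N + 1) F a b) :=
    fun g => hLOm F (N + 1) a b hk g
  have haΩ : x * u ∈ Cfsg.Omega F (Cfsg.quadFormMinus (N + 1) F a b) :=
    Subgroup.mul_mem _ (hx ▸ hLΩ g₁) huΩ
  have hbΩ := hLΩ g₂
  obtain ⟨A', hA'⟩ : ∃ A' : ↥(Cfsg.Omega F (Cfsg.quadFormMinus (N + 1) F a b)),
      A' = ⟨x * u, haΩ⟩ := ⟨_, rfl⟩
  obtain ⟨B', hB'⟩ : ∃ B' : ↥(Cfsg.Omega F (Cfsg.quadFormMinus (N + 1) F a b)),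
      B' = ⟨Lm (N + 1) F a b g₂, hbΩ⟩ := ⟨_, rfl⟩
  have hmap : (Subgroup.closure ({A', B'} :
      Set ↥(Cfsg.Omega F (Cfsg.quadFormMinus (N + 1) F a b)))).map
        (Cfsg.Omega F (Cfsg.quadFormMinus (N + 1) F a b)).subtype = K := by
    rw [MonoidHom.map_closure, Set.image_pair, hK, hA', hB']
    rfl
  have htop : Subgroup.closure ({A', B'} :
      Set ↥(Cfsg.Omega F (Cfsg.quadFormMinus (N + 1) F a b))) = ⊤ := by
    rw [eq_top_iff]
    intro y _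
    have hy : (y : ↥(GM (N + 1) F a b)) ∈ K := hΩ y.2
    rw [← hmap] at hy
    obtain ⟨z, hz, hzy⟩ := hy
    have e : z = y := Subtype.ext hzy
    rwa [← e]
  refine ⟨QuotientGroup.mk A', QuotientGroup.mk B', ?_⟩
  have hmap2 : Subgroup.map (QuotientGroup.mk' (Subgroup.center
        ↥(Cfsg.Omega F (Cfsg.quadFormMinus (N + 1) F a b))))
      (Subgroup.closure ({A', B'} : Set ↥(Cfsg.Omega F (Cfsg.quadFormMinus (N + 1) F a b))))
      = Subgroup.closure ({QuotientGroup.mk A', QuotientGroup.mk B'} :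
          Set (Cfsg.POmega F (Cfsg.quadFormMinus (N + 1) F a b))) := by
    rw [MonoidHom.map_closure, Set.image_pair]
    rfl
  rw [← hmap2, htop, Subgroup.map_top_of_surjective _ (QuotientGroup.mk'_surjective _)]

/-- **OMG main theorem**: `PΩ⁻_{2m}(q)`, `m ≥ 4`, is generated by two elements. -/
theorem main_of (hGens : PkgGensM.{u}) (hMix : PkgMixM.{u}) (hComm : PkgCommM.{u})
    (hRoots : PkgRoots.{u}) (hEmS : PkgEmSieg.{u}) (hShort : PkgShort.{u})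
    (hLine : PkgLineM.{u}) (hLOm : PkgLOm.{u}) (hUOm : PkgUOmM.{u})
    (hXL : Cfsg.Agent.Lib.Helper32.OPG.PkgXL.{u})
    (hSpread : Cfsg.Agent.Lib.Helper32.OPG.PkgSpread.{u})
    (F : Type u) [Field F] [Fintype F] (m : ℕ) (hm : 4 ≤ m) (a b : F)
    (hab : ∀ z₁ z₂ : F, z₁ ^ 2 + a * z₁ * z₂ + b * z₂ ^ 2 = 0 → z₁ = 0 ∧ z₂ = 0) :
    ∃ g h : Cfsg.POmega F (Cfsg.quadFormMinus (m - 1) F a b),
      Subgroup.closure ({g, h} : Set (Cfsg.POmega F (Cfsg.quadFormMinus (m - 1) F a b))) = ⊤ :=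
  main_k hGens hMix hComm hRoots hEmS hShort hLine hLOm hUOm hXL hSpread F (m - 1) (by omega)
    a b hab

end Cfsg.Agent.Lib.Helper94.OMG
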