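import Mathlib
import Cfsg.Agent.Lib.Helper94.OMG.Main
import Cfsg.Agent.Lib.Helper29.OMG.GensM
import Cfsg.Agent.Lib.Helper46.OMG.LOm
import Cfsg.Agent.Lib.Helper84.OMG.UOmM
import Cfsg.Agent.Lib.Helper65.OMG.EmSieg
import Cfsg.Agent.Lib.Helper38.OMG.CommM
import Cfsg.Agent.Lib.Helper13.OMG.MixW
import Cfsg.Agent.Lib.Helper59.OMG.Short
import Cfsg.Agent.Lib.Helper45.OMG.MixGlue
import Cfsg.Agent.Lib.Helper38.OPG.XL
import Cfsg.Agent.Lib.Helper62.OPG.Spread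

/-!
# Project OMG (S2415): everything except [MIXA], [ROOTS], [LINEM]
-/

set_option autoImplicit false

namespace Cfsg.Agent.Lib.Helper94.OMG

universe u

/-- `PΩ⁻_{2m}(q)`, `m ≥ 4`, is generated by two elements, given the three remaining packages. -/
theorem final_of (hMixA : PkgMixA.{u}) (hRoots : PkgRoots.{u}) (hLine : PkgLineM.{u})
    (F : Type u) [Field F] [Fintype F] (m : ℕ) (hm : 4 ≤ m) (a b : F)
    (hab : ∀ z₁ z₂ : F, z₁ ^ 2 + a * z₁ * z₂ + b * z₂ ^ 2 = 0 → z₁ = 0 ∧ z₂ = 0) :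
    ∃ g h : Cfsg.POmega F (Cfsg.quadFormMinus (m - 1) F a b),
      Subgroup.closure ({g, h} : Set (Cfsg.POmega F (Cfsg.quadFormMinus (m - 1) F a b))) = ⊤ :=
  main_of Cfsg.Agent.Lib.Helper29.OMG.pkgGensM
    (Cfsg.Agent.Lib.Helper45.OMG.pkgMixM_of hMixA Cfsg.Agent.Lib.Helper13.OMG.pkgMixW)
    Cfsg.Agent.Lib.Helper38.OMG.pkgCommM hRoots Cfsg.Agent.Lib.Helper65.OMG.pkgEmSieg
    Cfsg.Agent.Lib.Helper59.OMG.pkgShort hLine Cfsg.Agent.Lib.Helper46.OMG.pkgLOm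
    Cfsg.Agent.Lib.Helper84.OMG.pkgUOmM Cfsg.Agent.Lib.Helper38.OPG.pkgXL
    Cfsg.Agent.Lib.Helper62.OPG.pkgSpread F m hm a b hab

end Cfsg.Agent.Lib.Helper94.OMG
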